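import Mathlib
import Cfsg.Agent.H598.MaxDeg
import Cfsg.Agent.H511.SelfNormStruct
set_option linter.all false

/-!
# The largest character degree, continued

The case of an abelian chief factor.
-/

set_option autoImplicit false

namespace Cfsg.Agent.H598.MaxDeg

open Cfsg Cfsg.Agent Cfsg.Agent.Characters.Core Cfsg.Agent.Characters.Clifford
open Cfsg.Agent.H597.Base
open scoped ComplexConjugate

universe u

variable {G : Type u} [Group G]

theorem isIrr_of_comp [Finite G] {H : Type*} [Group H] [Finite H] (f : H →* G) {χ : G → ℂ}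
    (hχ : IsCharacter G χ) (h : IsIrrCharacter H (χ ∘ f)) : IsIrrCharacter G χ := by
  obtain ⟨n, ρ, rfl⟩ := hχ
  have h1 : Representation.IsIrreducible (ρ.comp f : Representation ℂ H (Fin n → ℂ)) :=
    isIrreducible_of_isIrrCharacter _ h
  exact isIrrCharacter_of_rep ρ (CharDeep.LinearChar.isIrreducible_of_comp f ρ h1)

theorem isIrr_restrict_mono [Finite G] {H K : Subgroup G} (hHK : H ≤ K) {χ : G → ℂ}
    (hχ : IsCharacter G χ) (h : IsIrrCharacter H (fun x : H => χ x)) :
    IsIrrCharacter K (fun x : K => χ x) :=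
  isIrr_of_comp (Subgroup.inclusion hHK) (isCharacter_restrict K hχ) h

theorem sum_normSq_restrict [Finite G] (H : Subgroup G) [Fintype H] {χ : G → ℂ}
    (h : IsIrrCharacter H (fun x : H => χ x)) :
    ∑ x : H, Complex.normSq (χ x) = (Nat.card H : ℝ) := (card_eq_sum_normSq h).symm

/-- sum over a subgroup of a function supported on a smaller one -/
theorem sum_eq_of_support_le [Finite G] {R : Type*} [AddCommMonoid R] {K H : Subgroup G}
    (hKH : K ≤ H) [Fintype H] [Fintype K] {f : G → R} (h : ∀ g ∈ H, g ∉ K → f g = 0) :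
    ∑ x : H, f x = ∑ x : K, f x := by
  classical
  have := Fintype.ofFinite G
  have h1 := sum_eq_of_support' H (f := fun g => if g ∈ H then f g else 0)
    (fun g hg => if_neg hg)
  have h2 := sum_eq_of_support' K (f := fun g => if g ∈ H then f g else 0) (fun g hg => by
    split_ifs with h3
    · exact h g h3 hg
    · rfl)
  have h3 : ∑ x : H, (if (x : G) ∈ H then f x else 0) = ∑ x : H, f x :=
    Finset.sum_congr rfl fun x _ => if_pos x.2
  have h4 : ∑ x : K, (if (x : G) ∈ H then f x else 0) = ∑ x : K, f x :=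
    Finset.sum_congr rfl fun x _ => if_pos (hKH x.2)
  rw [← h3, ← h4, ← h1, ← h2]

theorem card_mul_relIndex {K H : Subgroup G} (h : K ≤ H) :
    Nat.card K * K.relIndex H = Nat.card H := by
  rw [← Subgroup.relIndex_bot_left K, ← Subgroup.relIndex_bot_left H]
  exact Subgroup.relIndex_mul_relIndex ⊥ K H bot_le h

/-- `|H : core| ≤ b²` if `H` has a character of maximal degree. -/
theorem Bd.relIndex_core_le [Finite G] {b : ℕ} (h : Bd G b) (H : Subgroup G) {η : H → ℂ}
    (hη : IsIrrCharacter H η) (hb : charDegree η = b) : H.normalCore.relIndex H ≤ b ^ 2 := by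
  classical
  have := Fintype.ofFinite G
  obtain ⟨ψ, hψ, hψH, hψb⟩ := h.exists_extension H hη hb
  have h1 : IsIrrCharacter H (fun x : H => ψ x) := by rw [hψH]; exact hη
  have h2 := sum_normSq_restrict H h1
  rw [sum_eq_of_support_le H.normalCore_le (f := fun g => Complex.normSq (ψ g)) (fun g hg hg' => by
    rw [h.vanish_off_core H hψ h1 hψb hg hg', map_zero])] at h2
  have h3 : ∑ x : H.normalCore, Complex.normSq (ψ x) ≤ (Nat.card H.normalCore : ℝ) * (b : ℝ) ^ 2 := by
    refine (Finset.sum_le_card_nsmul _ _ ((b : ℝ) ^ 2) fun x _ => ?_).trans ?_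
    · rw [← hψb]
      exact normSq_le hψ x
    · rw [Finset.card_univ, nsmul_eq_mul, Nat.card_eq_fintype_card]
  rw [h2] at h3
  have h4 : Nat.card H ≤ Nat.card H.normalCore * b ^ 2 := by exact_mod_cast h3
  have h5 : Nat.card H.normalCore * H.normalCore.relIndex H = Nat.card H :=
    card_mul_relIndex H.normalCore_le
  rw [← h5] at h4
  exact Nat.le_of_mul_le_mul_left h4 Nat.card_pos

/-- Going down through an abelian chief factor. -/
theorem chief [Finite G] (R K : Subgroup G) [hR : R.Normal] [K.Normal] (hKR : K < R)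
    (hchief : ∀ M : Subgroup G, M.Normal → K ≤ M → M ≤ R → M = K ∨ M = R)
    (hab : ⁅R, R⁆ ≤ K) {ψ : G → ℂ} (hψ : IsIrrCharacter G ψ)
    (hψR : IsIrrCharacter R (fun x : R => ψ x)) (hψK : ¬ IsIrrCharacter K (fun x : K => ψ x)) :
    (∀ g ∈ R, g ∉ K → ψ g = 0) ∧
      ∃ e, e ≤ charDegree ψ ∧ (K.relIndex R = e ∨ K.relIndex R = e ^ 2) := by
  classical
  have := Fintype.ofFinite G
  have key : classInner (fun x : K => ψ x) (fun x : K => ψ x) = (K.relIndex R : ℂ) ∧
      ∃ e, e ≤ charDegree ψ ∧ (K.relIndex R = e ∨ K.relIndex R = e ^ 2) := by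
    rcases S0857.result R K hKR hchief hab (fun x : R => ψ x) hψR
      (fun g n => isIrr_isClassFunction hψ n g) with h | ⟨φ, e, hφ, h1, h2⟩ | ⟨F, hF, h1, h2⟩
    · exact absurd h hψK
    · refine ⟨?_, e, ?_, Or.inr h2.symm⟩
      · have h3 : (fun x : K => ψ x) = (e : ℂ) • φ := h1
        rw [h3, classInner_smul_left, classInner_smul_right, classInner_irr_self hφ,
          Complex.conj_natCast, ← h2]
        push_cast
        ring
      · have h3 := congrFun h1 1
        have h4 : ψ 1 = (e : ℂ) * φ 1 := h3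
        rw [apply_one hψ, apply_one hφ] at h4
        have h5 : charDegree ψ = e * charDegree φ := by exact_mod_cast h4
        rw [h5]
        exact Nat.le_mul_of_pos_right _ (Blocks.Basic.charDegree_pos hφ)
    · have h3 : (fun x : K => ψ x) = ∑ φ ∈ F, φ := h2
      refine ⟨?_, K.relIndex R, ?_, Or.inl rfl⟩
      · rw [h3, classInner_sum_left]
        rw [Finset.sum_congr rfl (g := fun _ => (1 : ℂ)), Finset.sum_const, h1, nsmul_eq_mul, mul_one]
        intro φ hφ
        rw [classInner_sum_right, Finset.sum_eq_single φ]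
        · exact classInner_irr_self (hF φ hφ)
        · intro τ hτ hne
          exact classInner_irr_ne (hF φ hφ) (hF τ hτ) hne.symm
        · intro h4; exact absurd hφ h4
      · have h4 := congrFun h3 1
        rw [Finset.sum_apply] at h4
        have h5 : ψ 1 = ∑ φ ∈ F, φ 1 := h4
        rw [apply_one hψ, Finset.sum_congr rfl (g := fun φ => ((charDegree φ : ℕ) : ℂ))
          (fun φ hφ => apply_one (hF φ hφ))] at h5
        have h6 : charDegree ψ = ∑ φ ∈ F, charDegree φ := by exact_mod_cast h5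
        rw [h6, ← h1, Finset.card_eq_sum_ones]
        exact Finset.sum_le_sum fun φ hφ => Blocks.Basic.charDegree_pos (hF φ hφ)
  refine ⟨?_, key.2⟩
  -- sums of squares
  have h1 := card_mul_classInner (fun x : K => ψ x) (fun x : K => ψ x)
  rw [key.1] at h1
  have h2 : ∀ x : K, ψ x * conj (ψ x) = ((Complex.normSq (ψ x) : ℝ) : ℂ) :=
    fun g => Complex.mul_conj _
  simp only [h2] at h1
  have h3 : ((Nat.card K * K.relIndex R : ℕ) : ℝ) = ∑ x : K, Complex.normSq (ψ x) := by
    exact_mod_cast h1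
  rw [card_mul_relIndex hKR.le, ← sum_normSq_restrict R hψR] at h3
  have h4 := sum_eq_of_support_le hKR.le (f := fun g => if g ∈ K then Complex.normSq (ψ g) else 0)
    (fun g _ hg => if_neg hg)
  have h5 : ∑ x : K, (if (x : G) ∈ K then Complex.normSq (ψ x) else 0)
      = ∑ x : K, Complex.normSq (ψ x) := Finset.sum_congr rfl fun x _ => if_pos x.2
  rw [h5, ← h3] at h4
  have h6 : ∑ x : R, (Complex.normSq (ψ x) - if (x : G) ∈ K then Complex.normSq (ψ x) else 0) = 0 := by
    rw [Finset.sum_sub_distrib, h4, sub_self]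
  have h7 := (Finset.sum_eq_zero_iff_of_nonneg (fun x _ => by
    split_ifs
    · rw [sub_self]
    · rw [sub_zero]; exact Complex.normSq_nonneg _)).1 h6
  intro g hgR hgK
  have h8 := h7 ⟨g, hgR⟩ (Finset.mem_univ _)
  rw [if_neg hgK, sub_zero] at h8
  exact Complex.normSq_eq_zero.1 h8

/-- a subgroup of prime index above `K` in `R` if `R / K` is abelian -/
theorem exists_prime_index [Finite G] (R K : Subgroup G) [hK : K.Normal] (hKR : K < R)
    (hab : ⁅R, R⁆ ≤ K) : ∃ D : Subgroup G, K ≤ D ∧ D ≤ R ∧ (D.relIndex R).Prime := by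
  have hn : (K.subgroupOf R).Normal := inferInstance
  have hcomm : ∀ x y : R ⧸ K.subgroupOf R, x * y = y * x := by
    intro x y
    obtain ⟨a, rfl⟩ := QuotientGroup.mk_surjective x
    obtain ⟨c, rfl⟩ := QuotientGroup.mk_surjective y
    rw [← QuotientGroup.mk_mul, ← QuotientGroup.mk_mul, QuotientGroup.eq]
    rw [Subgroup.mem_subgroupOf]
    apply hab
    have h0 := Subgroup.commutator_mem_commutator (R.inv_mem c.2) (R.inv_mem a.2)
    rw [commutatorElement_def] at h0
    have h1 : (((a * c)⁻¹ * (c * a) : R) : G) = (c : G)⁻¹ * (a : G)⁻¹ * ((c : G)⁻¹)⁻¹ * ((a : G)⁻¹)⁻¹ := by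
      push_cast
      group
    rw [h1]
    exact h0
  have hs : Group.IsSolvable (R ⧸ K.subgroupOf R) := by
    let _ : CommGroup (R ⧸ K.subgroupOf R) := { mul_comm := hcomm }
    infer_instance
  have hnt : Nontrivial (R ⧸ K.subgroupOf R) := by
    rw [← not_subsingleton_iff_nontrivial]
    intro h
    rw [QuotientGroup.subsingleton_iff, Subgroup.subgroupOf_eq_top] at h
    exact hKR.not_ge h
  obtain ⟨N, hN, hp⟩ := Cfsg.Agent.H511.exists_normal_prime_index (G := R ⧸ K.subgroupOf R)
  refine ⟨(N.comap (QuotientGroup.mk' (K.subgroupOf R))).map R.subtype, ?_,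
    Subgroup.map_subtype_le _, ?_⟩
  · intro k hk
    refine ⟨⟨k, hKR.le hk⟩, ?_, rfl⟩
    show QuotientGroup.mk' (K.subgroupOf R) ⟨k, hKR.le hk⟩ ∈ N
    have : QuotientGroup.mk' (K.subgroupOf R) ⟨k, hKR.le hk⟩ = 1 :=
      (QuotientGroup.eq_one_iff _).2 (Subgroup.mem_subgroupOf.2 hk)
    rw [this]
    exact N.one_mem
  · rw [Subgroup.relIndex, Subgroup.subgroupOf,
      Subgroup.comap_map_eq_self_of_injective R.subtype_injective,
      Subgroup.index_comap_of_surjective _ (QuotientGroup.mk'_surjective _)]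
    exact hp

theorem Bd.pos [Finite G] {b : ℕ} (h : Bd G b) : 0 < b :=
  lt_of_lt_of_le (Blocks.Basic.charDegree_pos isIrr_one) (h 1 isIrr_one)

/-- not bounded by `b - 1` -/
theorem Bd.exists_eq [Finite G] {b : ℕ} (h : Bd G b) {H : Subgroup G} (hH : ¬ Bd H (b - 1)) :
    ∃ η : H → ℂ, IsIrrCharacter H η ∧ charDegree η = b := by
  unfold Bd at hH
  push Not at hH
  obtain ⟨η, hη, h1⟩ := hH
  exact ⟨η, hη, le_antisymm (h.subgroup H η hη) (by omega)⟩

/-- The case of an abelian chief factor `R / K` with `|G : R| ≤ b`. -/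
theorem Bd.exists_of_chief [Finite G] {b : ℕ} (h : Bd G b) (R K : Subgroup G) [hR : R.Normal]
    [K.Normal] (hKR : K < R)
    (hchief : ∀ M : Subgroup G, M.Normal → K ≤ M → M ≤ R → M = K ∨ M = R)
    (hab : ⁅R, R⁆ ≤ K) (hnab : ¬ ∀ x y : G ⧸ K, x * y = y * x) (hRb : R.index ≤ b) :
    ∃ H : Subgroup G, H.index ≤ b ^ 2 ∧ Bd H (b - 1) := by
  classical
  have := Fintype.ofFinite G
  have hb0 := h.pos
  by_cases hRB : Bd R (b - 1)
  · exact ⟨R, hRb.trans (by nlinarith), hRB⟩
  have hKred : ∀ ψ : G → ℂ, IsIrrCharacter G ψ → charDegree ψ = b →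
      ¬ IsIrrCharacter K (fun x : K => ψ x) := by
    intro ψ hψ hψb hK
    have h1 := h.half K hnab _ hK
    have h2 : charDegree (fun x : K => ψ x) = b := by
      have h3 := apply_one hK
      have h4 : (charDegree ψ : ℂ) = charDegree (fun x : K => ψ x) := by
        rw [← apply_one hψ]
        exact h3
      rw [hψb] at h4
      exact_mod_cast h4.symm
    omega
  obtain ⟨η, hη, hηb⟩ := h.exists_eq hRB
  obtain ⟨ψ, hψ, hψR, hψb⟩ := h.exists_extension R hη hηb
  obtain ⟨-, e, he, he'⟩ := chief R K hKR hchief hab hψ (by rw [hψR]; exact hη) (hKred ψ hψ hψb)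
  obtain ⟨D, hKD, hDR, hp⟩ := exists_prime_index R K hKR hab
  have hpe : D.relIndex R ≤ b := by
    have h1 : D.relIndex R ∣ K.relIndex R := by
      rw [← Subgroup.relIndex_mul_relIndex K D R hKD hDR]
      exact dvd_mul_left _ _
    have h0 : K.relIndex R ≠ 0 := by
      intro h1
      have h2 := card_mul_relIndex hKR.le
      rw [h1, mul_zero] at h2
      exact (Nat.card_pos (α := R)).ne h2
    rw [hψb] at he
    rcases he' with h2 | h2
    · rw [h2] at h1 h0
      exact (Nat.le_of_dvd (Nat.pos_of_ne_zero h0) h1).trans he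
    · rw [h2] at h1 h0
      have h3 := hp.dvd_of_dvd_pow h1
      have h4 : 0 < e := by
        rcases Nat.eq_zero_or_pos e with h5 | h5
        · rw [h5] at h0; simp at h0
        · exact h5
      exact (Nat.le_of_dvd h4 h3).trans he
  refine ⟨D, ?_, ?_⟩
  · rw [← Subgroup.relIndex_mul_index hDR, sq]
    exact Nat.mul_le_mul hpe hRb
  · by_contra hD
    obtain ⟨η', hη', hηb'⟩ := h.exists_eq hD
    obtain ⟨ψ', hψ', hψD', hψb'⟩ := h.exists_extension D hη' hηb'
    have hD1 : IsIrrCharacter D (fun x : D => ψ' x) := by rw [hψD']; exact hη'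
    have hR1 := isIrr_restrict_mono hDR (isIrr_isCharacter hψ') hD1
    obtain ⟨hv, -⟩ := chief R K hKR hchief hab hψ' hR1 (hKred ψ' hψ' hψb')
    have h1 := sum_normSq_restrict R hR1
    have h2 := sum_normSq_restrict D hD1
    rw [sum_eq_of_support_le (hKD.trans hDR) (f := fun g => Complex.normSq (ψ' g))
      (fun g hg hg' => by rw [hv g hg hg', map_zero])] at h1
    rw [sum_eq_of_support_le hKD (f := fun g => Complex.normSq (ψ' g))
      (fun g hg hg' => by rw [hv g (hDR hg) hg', map_zero]), h1] at h2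
    have h3 : Nat.card R = Nat.card D := by exact_mod_cast h2
    have h4 := card_mul_relIndex hDR
    rw [← h3] at h4
    have h5 : D.relIndex R = 1 := Nat.eq_of_mul_eq_mul_left (Nat.card_pos (α := R)) (by rw [h4, mul_one])
    exact hp.one_lt.ne' h5

end Cfsg.Agent.H598.MaxDeg
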